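-- The relations of ten elements of the presented Harada-Norton group, checked on the base, part 4.
import Cfsg.Agent.Lib.Compute.TC.HNA.Data
set_option autoImplicit false
set_option maxRecDepth 1000000
set_option Elab.async false

open Cfsg.Agent.Lib.Compute.ToddCoxeterCore Cfsg.Agent.Lib.Compute.ToddCoxeterPresented Cfsg.Agent.Lib.Compute.TCFast Cfsg.Agent.Lib.Compute.TCChain Cfsg.Agent.Lib.Compute.PNet

namespace Cfsg.Agent.Lib.Compute.TC.HNA

theorem c2_5_7 : eqOn (ev0 HNTT.cfg) ((PE.mul (es.getD 5 .one) (es.getD 7 .one)).pw 2) .one HNF.base = true := by decide +kernel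
theorem c3_4 : eqOn (ev0 HNTT.cfg) ((es.getD 4 .one).pw 3) .one HNF.base = true := by decide +kernel
theorem c2_5_8 : eqOn (ev0 HNTT.cfg) ((PE.mul (es.getD 5 .one) (es.getD 8 .one)).pw 2) .one HNF.base = true := by decide +kernel
theorem c2_2_7 : eqOn (ev0 HNTT.cfg) ((PE.mul (es.getD 2 .one) (es.getD 7 .one)).pw 2) .one HNF.base = true := by decide +kernel
theorem c2_2_9 : eqOn (ev0 HNTT.cfg) ((PE.mul (es.getD 2 .one) (es.getD 9 .one)).pw 2) .one HNF.base = true := by decide +kernel
theorem c2_3_6 : eqOn (ev0 HNTT.cfg) ((PE.mul (es.getD 3 .one) (es.getD 6 .one)).pw 2) .one HNF.base = true := by decide +kernel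
theorem c2_3_8 : eqOn (ev0 HNTT.cfg) ((PE.mul (es.getD 3 .one) (es.getD 8 .one)).pw 2) .one HNF.base = true := by decide +kernel
theorem c2_0_8 : eqOn (ev0 HNTT.cfg) ((PE.mul (es.getD 0 .one) (es.getD 8 .one)).pw 2) .one HNF.base = true := by decide +kernel
theorem c3_1 : eqOn (ev0 HNTT.cfg) ((es.getD 1 .one).pw 3) .one HNF.base = true := by decide +kernel
theorem c3_0 : eqOn (ev0 HNTT.cfg) ((es.getD 0 .one).pw 3) .one HNF.base = true := by decide +kernel

end Cfsg.Agent.Lib.Compute.TC.HNA
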