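-- Carmichael's relations for ten elements of the presented Harada-Norton group.
import Cfsg.Agent.Lib.Compute.TC.HNA.C0
import Cfsg.Agent.Lib.Compute.TC.HNA.C1
import Cfsg.Agent.Lib.Compute.TC.HNA.C2
import Cfsg.Agent.Lib.Compute.TC.HNA.C3
import Cfsg.Agent.Lib.Compute.TC.HNA.C4
import Cfsg.Agent.Lib.Compute.TC.HNA.C5
set_option autoImplicit false
set_option maxRecDepth 1000000

open Cfsg.Agent.Lib.Compute.ToddCoxeterCore Cfsg.Agent.Lib.Compute.ToddCoxeterPresented Cfsg.Agent.Lib.Compute.TCFast Cfsg.Agent.Lib.Compute.TCChain Cfsg.Agent.Lib.Compute.PNet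

namespace Cfsg.Agent.Lib.Compute.TC.HNA

theorem c3All (n : ℕ) (hn : n < 10) : eqOn (ev0 HNTT.cfg) ((es.getD n .one).pw 3) .one HNF.base = true := by
  interval_cases n
  · exact c3_0
  · exact c3_1
  · exact c3_2
  · exact c3_3
  · exact c3_4
  · exact c3_5
  · exact c3_6
  · exact c3_7
  · exact c3_8
  · exact c3_9

theorem c2All (m n : ℕ) (hm : m < n) (hn : n < 10) :
    eqOn (ev0 HNTT.cfg) ((PE.mul (es.getD m .one) (es.getD n .one)).pw 2) .one HNF.base = true := by
  interval_cases n
  · omega
  · interval_cases m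
    · exact c2_0_1
  · interval_cases m
    · exact c2_0_2
    · exact c2_1_2
  · interval_cases m
    · exact c2_0_3
    · exact c2_1_3
    · exact c2_2_3
  · interval_cases m
    · exact c2_0_4
    · exact c2_1_4
    · exact c2_2_4
    · exact c2_3_4
  · interval_cases m
    · exact c2_0_5
    · exact c2_1_5
    · exact c2_2_5
    · exact c2_3_5
    · exact c2_4_5
  · interval_cases m
    · exact c2_0_6
    · exact c2_1_6
    · exact c2_2_6
    · exact c2_3_6
    · exact c2_4_6
    · exact c2_5_6
  · interval_cases m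
    · exact c2_0_7
    · exact c2_1_7
    · exact c2_2_7
    · exact c2_3_7
    · exact c2_4_7
    · exact c2_5_7
    · exact c2_6_7
  · interval_cases m
    · exact c2_0_8
    · exact c2_1_8
    · exact c2_2_8
    · exact c2_3_8
    · exact c2_4_8
    · exact c2_5_8
    · exact c2_6_8
    · exact c2_7_8
  · interval_cases m
    · exact c2_0_9
    · exact c2_1_9
    · exact c2_2_9
    · exact c2_3_9
    · exact c2_4_9
    · exact c2_5_9
    · exact c2_6_9
    · exact c2_7_9
    · exact c2_8_9

end Cfsg.Agent.Lib.Compute.TC.HNA
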